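import Mathlib
import Cfsg.Agent.S0375
import Cfsg.Agent.Lib.LeechSet

set_option autoImplicit false

namespace Cfsg.Agent.LeechChar

open Cfsg

abbrev V := Fin 24 → ℤ

def dot (u v : V) : ℤ := ∑ i, u i * v i

def e4 (i j : Fin 24) (s : ℤ) : V := fun k => (if k = i then 4 else 0) + (if k = j then 4 * s else 0)

structure Core (Λ : AddSubgroup V) : Prop where
  dot8 : ∀ u ∈ Λ, ∀ v ∈ Λ, (8 : ℤ) ∣ dot u v
  norm16 : ∀ u ∈ Λ, (16 : ℤ) ∣ dot u u
  noroot : ∀ u ∈ Λ, dot u u ≠ 16
  plus : ∀ i j, i ≠ j → e4 i j 1 ∈ Λ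
  minus : ∀ i j, i ≠ j → e4 i j (-1) ∈ Λ
  count : {u : V | u ∈ Λ ∧ dot u u = 32}.ncard = 196560

variable {Λ : AddSubgroup V}

lemma dot_add_left (a b c : V) : dot (a + b) c = dot a c + dot b c := by
  simp [dot, add_mul, Finset.sum_add_distrib]

lemma dot_comm (a b : V) : dot a b = dot b a := by
  simp [dot, mul_comm]

lemma dot_smul_left (k : ℤ) (a b : V) : dot (k • a) b = k * dot a b := by
  simp [dot, Finset.mul_sum, mul_assoc]

lemma dot_smul_right (k : ℤ) (a b : V) : dot a (k • b) = k * dot a b := by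
  rw [dot_comm, dot_smul_left, dot_comm]

lemma dot_sub_left (a b c : V) : dot (a - b) c = dot a c - dot b c := by
  simp [dot, sub_mul, Finset.sum_sub_distrib]

lemma dot_single (a : V) (i : Fin 24) (c : ℤ) : dot a (Pi.single i c) = a i * c := by
  unfold dot
  rw [Finset.sum_eq_single i]
  · simp
  · intro j _ hj
    simp [Pi.single_apply, hj]
  · simp

lemma e4_eq (i j : Fin 24) (s : ℤ) : e4 i j s = Pi.single i 4 + Pi.single j (4 * s) := by
  funext k
  simp [e4, Pi.single_apply]

/-- `8 e_i ∈ Λ`. -/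
lemma eight_single (h : Core Λ) (i : Fin 24) : (Pi.single i 8 : V) ∈ Λ := by
  obtain ⟨j, hj⟩ : ∃ j : Fin 24, i ≠ j := by
    by_cases h0 : i = 0
    · exact ⟨1, by rw [h0]; decide⟩
    · exact ⟨0, h0⟩
  have h1 := Λ.add_mem (h.plus i j hj) (h.minus i j hj)
  convert h1 using 1
  funext k
  simp only [e4, Pi.add_apply, Pi.single_apply]
  by_cases hk : k = i <;> by_cases hk2 : k = j <;> simp [hk, hk2] <;> omega

/-- `4 a ∈ Λ` when the sum of the entries of `a` is even. -/
lemma mem_four (h : Core Λ) (a : V) (ha : (2 : ℤ) ∣ ∑ i, a i) : (4 : ℤ) • a ∈ Λ := by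
  obtain ⟨b, hb⟩ := ha
  have h1 : ∀ i : Fin 24, ((4 : ℤ) • ((Pi.single i 1 : V) - Pi.single 0 1)) ∈ Λ := by
    intro i
    by_cases hi : i = 0
    · subst hi
      simp [Λ.zero_mem]
    · have h2 := h.minus i 0 hi
      convert h2 using 1
      funext k
      simp only [e4, Pi.smul_apply, Pi.sub_apply, Pi.single_apply, smul_eq_mul]
      by_cases hk : k = i
      · subst hk
        simp [hi]
      · by_cases hk2 : k = 0
        · subst hk2
          simp [hk]
        · simp [hk, hk2]
  have h3 : ((4 : ℤ) • a) = ∑ i, a i • ((4 : ℤ) • ((Pi.single i 1 : V) - Pi.single 0 1)) + b • (Pi.single 0 8 : V) := by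
    funext k
    simp only [Pi.add_apply, Finset.sum_apply, Pi.smul_apply, Pi.sub_apply, Pi.single_apply, smul_eq_mul]
    have h4 : ∑ i, a i * (4 * ((if k = i then (1 : ℤ) else 0) - if k = 0 then 1 else 0))
        = 4 * a k - 4 * (∑ i, a i) * (if k = 0 then 1 else 0) := by
      have : ∀ i, a i * (4 * ((if k = i then (1 : ℤ) else 0) - if k = 0 then 1 else 0))
          = 4 * (if k = i then a i else 0) - 4 * a i * (if k = 0 then 1 else 0) := by
        intro i
        by_cases hi : k = i
        · subst hi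
          by_cases hk : k = 0 <;> simp [hk] <;> ring
        · by_cases hk : k = 0
          · subst hk
            simp [hi]
            ring
          · simp [hi, hk]
      simp only [this]
      rw [Finset.sum_sub_distrib, ← Finset.mul_sum, ← Finset.sum_mul, ← Finset.mul_sum]
      simp
    rw [h4, hb]
    by_cases hk : k = 0 <;> simp [hk] <;> ring
  rw [h3]
  apply Λ.add_mem
  · exact Λ.sum_mem fun i _ => Λ.zsmul_mem (h1 i) _
  · exact Λ.zsmul_mem (eight_single h 0) _

/-- If `4 a ∈ Λ` then the sum of entries of `a` is even. -/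
lemma sum_even_of_four (h : Core Λ) (a : V) (ha : (4 : ℤ) • a ∈ Λ) : (2 : ℤ) ∣ ∑ i, a i := by
  by_contra hodd
  have h1 : (2 : ℤ) ∣ ∑ i, (a - (Pi.single 0 1 : V)) i := by
    have : ∑ i, (a - (Pi.single 0 1 : V)) i = ∑ i, a i - 1 := by
      simp [Finset.sum_sub_distrib]
    rw [this]
    omega
  have h2 := mem_four h _ h1
  have h3 : (Pi.single 0 4 : V) ∈ Λ := by
    have := Λ.sub_mem ha h2
    convert this using 1
    funext k
    simp [Pi.single_apply]
    split_ifs <;> ring
  apply h.noroot _ h3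
  rw [dot_single]
  simp

/-- All coordinates of a vector of `Λ` have the same parity. -/
lemma parity (h : Core Λ) {u : V} (hu : u ∈ Λ) (i j : Fin 24) : (2 : ℤ) ∣ u i + u j := by
  by_cases hij : i = j
  · subst hij
    exact ⟨u i, by ring⟩
  have h1 := h.dot8 u hu _ (h.plus i j hij)
  rw [e4_eq] at h1
  have h2 : dot u (Pi.single i 4 + Pi.single j (4 * 1)) = 4 * (u i + u j) := by
    rw [dot_comm, dot_add_left, dot_comm, dot_single, dot_comm (Pi.single j _), dot_single]
    ring
  rw [h2] at h1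
  omega

end Cfsg.Agent.LeechChar
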