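import Mathlib
import Cfsg.Agent.LeechChar.Core1

set_option autoImplicit false

namespace Cfsg.Agent.LeechChar

open Cfsg

variable {Λ : AddSubgroup V}

/-- Reduction modulo 2. -/
def red : V →+ (Fin 24 → ZMod 2) where
  toFun u i := (u i : ZMod 2)
  map_zero' := by funext i; simp
  map_add' a b := by funext i; simp

@[simp] lemma red_apply (u : V) (i : Fin 24) : red u i = (u i : ZMod 2) := rfl

lemma cast_two_eq_zero_iff (a : ℤ) : ((a : ZMod 2) = 0) ↔ (2 : ℤ) ∣ a :=
  (ZMod.intCast_zmod_eq_zero_iff_dvd a 2).trans (by norm_num)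

/-- The vectors whose double lies in `Λ`. -/
def halves (Λ : AddSubgroup V) : AddSubgroup V where
  carrier := {y | (2 : ℤ) • y ∈ Λ}
  add_mem' {a b} ha hb := by
    show (2 : ℤ) • (a + b) ∈ Λ
    rw [smul_add]
    exact Λ.add_mem ha hb
  zero_mem' := by
    show (2 : ℤ) • (0 : V) ∈ Λ
    simp [Λ.zero_mem]
  neg_mem' {a} ha := by
    show (2 : ℤ) • (-a) ∈ Λ
    rw [smul_neg]
    exact Λ.neg_mem ha

lemma mem_halves {y : V} : y ∈ halves Λ ↔ (2 : ℤ) • y ∈ Λ := Iff.rfl

/-- The code of `Λ`. -/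
noncomputable def codeC (Λ : AddSubgroup V) : Submodule (ZMod 2) (Fin 24 → ZMod 2) :=
  AddSubgroup.toZModSubmodule 2 ((halves Λ).map red)

lemma mem_codeC {w : Fin 24 → ZMod 2} : w ∈ codeC Λ ↔ ∃ y, (2 : ℤ) • y ∈ Λ ∧ red y = w := by
  unfold codeC
  rw [AddSubgroup.mem_toZModSubmodule]
  simp only [AddSubgroup.mem_map]
  rfl

lemma dot_self_eq (a : V) : dot a a = ∑ i, a i ^ 2 := by
  simp [dot, sq]

lemma dot_two (a b : V) : dot ((2 : ℤ) • a) ((2 : ℤ) • b) = 4 * dot a b := by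
  rw [dot_smul_left, dot_smul_right]
  ring

lemma red_sum_mul (a b : V) : ∑ i, red a i * red b i = ((dot a b : ℤ) : ZMod 2) := by
  simp [dot]

lemma codeC_orth (h : Core Λ) : ∀ v ∈ codeC Λ, ∀ w ∈ codeC Λ, ∑ i, v i * w i = 0 := by
  intro v hv w hw
  obtain ⟨a, ha, rfl⟩ := mem_codeC.1 hv
  obtain ⟨b, hb, rfl⟩ := mem_codeC.1 hw
  rw [red_sum_mul, cast_two_eq_zero_iff]
  have := h.dot8 _ ha _ hb
  rw [dot_two] at this
  omega

lemma hamming_red (y : V) : (hammingNorm (red y) : ℤ) = ∑ i, y i % 2 := by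
  unfold hammingNorm
  rw [Finset.card_filter]
  push_cast
  apply Finset.sum_congr rfl
  intro i _
  have h1 : ¬ ((2 : ℤ) ∣ y i) ↔ y i % 2 = 1 := by omega
  by_cases h2 : (2 : ℤ) ∣ y i
  · have : red y i = 0 := (cast_two_eq_zero_iff _).2 h2
    rw [if_neg (by simpa using this)]
    omega
  · have : red y i ≠ 0 := fun h3 => h2 ((cast_two_eq_zero_iff _).1 h3)
    rw [if_pos this]
    omega

lemma sq_sub_emod (t : ℤ) : (4 : ℤ) ∣ t ^ 2 - t % 2 := by
  obtain ⟨a, r, rfl, hr⟩ : ∃ a r : ℤ, t = 2 * a + r ∧ (r = 0 ∨ r = 1) :=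
    ⟨t / 2, t % 2, by omega, by omega⟩
  have h1 : (2 * a + r) % 2 = r := by omega
  rw [h1]
  rcases hr with rfl | rfl
  · exact ⟨a ^ 2, by ring⟩
  · exact ⟨a ^ 2 + a, by ring⟩

lemma four_dvd_dot_sub (y : V) : (4 : ℤ) ∣ dot y y - ∑ i, y i % 2 := by
  rw [dot_self_eq, ← Finset.sum_sub_distrib]
  exact Finset.dvd_sum fun i _ => sq_sub_emod _

lemma four_dvd_dot (h : Core Λ) {y : V} (hy : (2 : ℤ) • y ∈ Λ) : (4 : ℤ) ∣ dot y y := by
  have := h.norm16 _ hy
  rw [dot_two] at this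
  omega

lemma codeC_four (h : Core Λ) : ∀ w ∈ codeC Λ, 4 ∣ hammingNorm w := by
  intro w hw
  obtain ⟨y, hy, rfl⟩ := mem_codeC.1 hw
  have h1 := four_dvd_dot h hy
  have h2 := four_dvd_dot_sub y
  rw [← hamming_red] at h2
  have h3 : (4 : ℤ) ∣ (hammingNorm (red y) : ℤ) := by omega
  exact_mod_cast h3

/-- Decomposition of a half vector. -/
lemma two_mem_of (h : Core Λ) {y a r : V} (hy : (2 : ℤ) • y ∈ Λ) (hd : ∀ i, y i = 2 * a i + r i)
    (hs : (2 : ℤ) ∣ ∑ i, a i) : (2 : ℤ) • r ∈ Λ := by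
  have h1 := mem_four h a hs
  have h2 := Λ.sub_mem hy h1
  convert h2 using 1
  funext i
  simp only [Pi.smul_apply, Pi.sub_apply, smul_eq_mul, hd i]
  ring

lemma emod_sq (t : ℤ) : (t % 2) ^ 2 = t % 2 := by
  have : t % 2 = 0 ∨ t % 2 = 1 := by omega
  rcases this with h | h <;> rw [h] <;> norm_num

lemma codeC_no4 (h : Core Λ) : ∀ w ∈ codeC Λ, hammingNorm w ≠ 4 := by
  intro w hw hw4
  obtain ⟨y, hy, rfl⟩ := mem_codeC.1 hw
  have hsum : ∑ i, y i % 2 = 4 := by
    rw [← hamming_red, hw4]; rfl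
  have hnorm : ∑ i, (y i % 2) ^ 2 = 4 := by
    simp only [emod_sq]; exact hsum
  -- a coordinate which is odd
  obtain ⟨i₀, hi₀⟩ : ∃ i₀, y i₀ % 2 = 1 := by
    by_contra hne
    push_neg at hne
    have : ∀ i, y i % 2 = 0 := fun i => by
      have := hne i
      omega
    simp [this] at hsum
  have hd : ∀ i, y i = 2 * (y i / 2) + y i % 2 := fun i => by omega
  by_cases hs : (2 : ℤ) ∣ ∑ i, y i / 2
  · have h1 := two_mem_of h (a := fun i => y i / 2) (r := fun i => y i % 2) hy hd hs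
    refine h.noroot _ h1 ?_
    rw [dot_two, dot_self_eq, hnorm]
    norm_num
  · have h1 := two_mem_of h (a := fun i => y i / 2 + (if i = i₀ then 1 else 0))
      (r := fun i => y i % 2 - (if i = i₀ then 2 else 0)) hy (fun i => by
        have := hd i
        by_cases hi : i = i₀ <;> simp [hi] <;> omega) (by
        rw [Finset.sum_add_distrib]
        simp only [Finset.sum_ite_eq', Finset.mem_univ, if_true]
        omega)
    refine h.noroot _ h1 ?_
    rw [dot_two, dot_self_eq]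
    have : ∀ i, (y i % 2 - (if i = i₀ then 2 else 0)) ^ 2 = (y i % 2) ^ 2 := by
      intro i
      by_cases hi : i = i₀
      · subst hi
        rw [hi₀]; norm_num
      · simp [hi]
    simp only [this, hnorm]
    norm_num

/-- The standard dot product on `𝔽₂²⁴`. -/
noncomputable def dotForm : LinearMap.BilinForm (ZMod 2) (Fin 24 → ZMod 2) :=
  Matrix.toBilin' (1 : Matrix (Fin 24) (Fin 24) (ZMod 2))

lemma dotForm_apply (u v : Fin 24 → ZMod 2) : dotForm u v = ∑ i, u i * v i := by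
  unfold dotForm
  rw [Matrix.toBilin'_apply']
  simp [dotProduct]

lemma dotForm_nondeg : dotForm.Nondegenerate := by
  unfold dotForm
  exact Matrix.nondegenerate_toBilin'_iff.2 (Matrix.nondegenerate_of_det_ne_zero (by simp))

lemma codeC_finrank_le (h : Core Λ) : Module.finrank (ZMod 2) (codeC Λ) ≤ 12 := by
  have hle : codeC Λ ≤ dotForm.orthogonal (codeC Λ) := by
    intro x hx
    rw [LinearMap.BilinForm.mem_orthogonal_iff]
    intro c hc
    show dotForm c x = 0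
    rw [dotForm_apply]
    exact codeC_orth h c hc x hx
  have h1 := Submodule.finrank_mono hle
  rw [LinearMap.BilinForm.finrank_orthogonal dotForm_nondeg] at h1
  simp at h1
  omega

end Cfsg.Agent.LeechChar
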