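import Mathlib
import Cfsg.Agent.LeechChar.Core2
import Cfsg.Agent.Lib.LeechSet

set_option autoImplicit false

namespace Cfsg.Agent.LeechChar

open Cfsg Cfsg.Agent.Lib.LeechSet

variable {Λ : AddSubgroup V}

lemma sum_eq_one_aux (c : Fin 24 → ℤ) (hc : ∀ i, 0 ≤ c i) (hs : ∑ i, c i = 1) :
    ∃ p, c p = 1 ∧ ∀ i, i ≠ p → c i = 0 := by
  obtain ⟨p, hp⟩ : ∃ p, c p ≠ 0 := by
    by_contra hne
    push_neg at hne
    simp [hne] at hs
  have h1 := Finset.add_sum_erase Finset.univ c (Finset.mem_univ p)
  have h2 : 0 ≤ ∑ i ∈ Finset.univ.erase p, c i := Finset.sum_nonneg fun i _ => hc i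
  have h3 := hc p
  have h4 : c p = 1 := by omega
  refine ⟨p, h4, fun i hi => ?_⟩
  have h5 : ∑ i ∈ Finset.univ.erase p, c i = 0 := by omega
  exact (Finset.sum_eq_zero_iff_of_nonneg (fun i _ => hc i)).1 h5 i
    (Finset.mem_erase.2 ⟨hi, Finset.mem_univ i⟩)

lemma odd_sq_form (t : ℤ) (ht : t % 2 = 1) : ∃ c : ℤ, 0 ≤ c ∧ t ^ 2 = 1 + 8 * c := by
  obtain ⟨k, rfl⟩ : ∃ k, t = 2 * k + 1 := ⟨t / 2, by omega⟩
  obtain ⟨m, hm⟩ := Int.even_mul_succ_self k
  have h0 : 0 ≤ k * (k + 1) := by
    rcases le_or_gt 0 k with h | h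
    · positivity
    · nlinarith
  refine ⟨m, by omega, ?_⟩
  have : (2 * k + 1) ^ 2 = 1 + 4 * (k * (k + 1)) := by ring
  rw [this, hm]
  ring

lemma classify_odd (u : V) (hodd : ∀ i, u i % 2 = 1) (hn : dot u u = 32) :
    ∃ p, (u p) ^ 2 = 9 ∧ ∀ i, i ≠ p → (u i) ^ 2 = 1 := by
  choose c hc0 hc using fun i => odd_sq_form (u i) (hodd i)
  have h1 : ∑ i, c i = 1 := by
    rw [dot_self_eq] at hn
    simp only [hc] at hn
    rw [Finset.sum_add_distrib, ← Finset.mul_sum] at hn
    simp at hn
    omega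
  obtain ⟨p, hp, hp2⟩ := sum_eq_one_aux c hc0 h1
  refine ⟨p, ?_, fun i hi => ?_⟩
  · rw [hc, hp]; norm_num
  · rw [hc, hp2 i hi]; norm_num

lemma int_sq_eq_one {a : ℤ} (h : a ^ 2 = 1) : a = 1 ∨ a = -1 := by
  have : (a - 1) * (a + 1) = 0 := by ring_nf; linarith
  rcases mul_eq_zero.1 this with h | h
  · left; omega
  · right; omega

/-- The vectors of shape `(±4, ±4, 0²²)`. -/
def fourMap (g : Fin 24 × Fin 24 × Bool × Bool) : V := fun k =>
  (if k = g.1 then (if g.2.2.1 then 4 else -4) else 0) +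
    (if k = g.2.1 then (if g.2.2.2 then 4 else -4) else 0)

lemma classify_four (a : V) (hn : ∑ i, (a i) ^ 2 = 2) :
    ∃ g, (4 : ℤ) • a = fourMap g := by
  obtain ⟨i, hi⟩ : ∃ i, a i ≠ 0 := by
    by_contra hne
    push_neg at hne
    simp [hne] at hn
  have h1 := Finset.add_sum_erase Finset.univ (fun i => (a i) ^ 2) (Finset.mem_univ i)
  have h2 : 0 ≤ ∑ k ∈ Finset.univ.erase i, (a k) ^ 2 := Finset.sum_nonneg fun k _ => sq_nonneg _
  have h3 : (a i) ^ 2 = 1 := by
    have h4 : 1 ≤ (a i) ^ 2 := by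
      have : 0 < (a i) ^ 2 := by positivity
      omega
    have h5 : (a i) ^ 2 ≤ 2 := by
      omega
    have h6 : a i ≤ 1 := by nlinarith
    have h7 : -1 ≤ a i := by nlinarith
    have h8 : a i = 1 ∨ a i = -1 := by omega
    rcases h8 with h8 | h8 <;> rw [h8] <;> norm_num
  have h9 : ∑ k, (if k = i then 0 else (a k) ^ 2) = 1 := by
    have : ∑ k, (if k = i then 0 else (a k) ^ 2) = ∑ k ∈ Finset.univ.erase i, (a k) ^ 2 := by
      rw [← Finset.add_sum_erase Finset.univ _ (Finset.mem_univ i)]
      simp only [if_true, zero_add]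
      apply Finset.sum_congr rfl
      intro k hk
      rw [if_neg (Finset.ne_of_mem_erase hk)]
    rw [this]
    omega
  obtain ⟨j, hj, hj2⟩ := sum_eq_one_aux _ (fun k => by
    split_ifs
    · exact le_refl _
    · exact sq_nonneg _) h9
  have hji : j ≠ i := by
    rintro rfl
    simp at hj
  rw [if_neg hji] at hj
  obtain ⟨s, hs⟩ : ∃ s : Bool, 4 * a i = if s then 4 else -4 := by
    rcases int_sq_eq_one h3 with h | h
    · exact ⟨true, by simp [h]⟩
    · exact ⟨false, by simp [h]⟩
  obtain ⟨t, ht⟩ : ∃ t : Bool, 4 * a j = if t then 4 else -4 := by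
    rcases int_sq_eq_one hj with h | h
    · exact ⟨true, by simp [h]⟩
    · exact ⟨false, by simp [h]⟩
  refine ⟨(i, j, s, t), ?_⟩
  funext k
  simp only [fourMap, Pi.smul_apply, smul_eq_mul]
  by_cases hki : k = i
  · subst hki
    rw [if_pos rfl, if_neg (Ne.symm hji), hs]
    simp
  · by_cases hkj : k = j
    · subst hkj
      rw [if_neg hki, if_pos rfl, ht]
      simp
    · rw [if_neg hki, if_neg hkj]
      have := hj2 k hkj
      rw [if_neg hki] at this
      have h0 : a k = 0 := by simpa using this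
      simp [h0]

open Classical in
/-- The weight 8 sets of the code. -/
noncomputable def octs (Λ : AddSubgroup V) : Finset (Finset (Fin 24)) :=
  Finset.univ.filter (fun S => S.card = 8 ∧ ind S ∈ codeC Λ)

lemma hamming_ind (S : Finset (Fin 24)) : hammingNorm (ind S) = S.card := by
  unfold hammingNorm
  congr 1
  ext a
  simp [ind]

lemma red_eq_ind (y : V) : red y = ind (Finset.univ.filter fun i => y i % 2 = 1) := by
  funext i
  simp only [red_apply, ind, Finset.mem_filter, Finset.mem_univ, true_and]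
  by_cases h : y i % 2 = 1
  · rw [if_pos h]
    have : ((y i : ℤ) : ZMod 2) ≠ 0 := by
      intro h2
      rw [cast_two_eq_zero_iff] at h2
      omega
    exact zmod2_eq_of_ne this
  · rw [if_neg h, cast_two_eq_zero_iff]
    omega

lemma classify_even (h : Core Λ) {y : V} (hy : (2 : ℤ) • y ∈ Λ) (hn : dot y y = 8) :
    (∃ S ∈ octs Λ, (∀ i ∈ S, (y i) ^ 2 = 1) ∧ ∀ i, i ∉ S → y i = 0) ∨
      ∃ g, (2 : ℤ) • y = fourMap g := by
  have hw := codeC_four h (red y) (mem_codeC.2 ⟨y, hy, rfl⟩)
  have hno := codeC_no4 h (red y) (mem_codeC.2 ⟨y, hy, rfl⟩)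
  have hH := hamming_red y
  have hle : ∀ i, y i % 2 ≤ (y i) ^ 2 := by
    intro i
    have h1 : y i % 2 = 0 ∨ y i % 2 = 1 := by omega
    rcases h1 with h1 | h1
    · rw [h1]; positivity
    · rw [h1]
      have : y i ≠ 0 := by
        intro h2
        rw [h2] at h1
        norm_num at h1
      have : 0 < (y i) ^ 2 := by positivity
      omega
  have hsum : ∑ i, y i % 2 ≤ 8 := by
    rw [← hn, dot_self_eq]
    exact Finset.sum_le_sum fun i _ => hle i
  obtain ⟨k, hk⟩ := hw
  have hcases : hammingNorm (red y) = 0 ∨ hammingNorm (red y) = 8 := by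
    have : (hammingNorm (red y) : ℤ) ≤ 8 := by rw [hH]; exact hsum
    omega
  rcases hcases with h0 | h8
  · right
    have hall : ∀ i, y i % 2 = 0 := by
      have : red y = 0 := by simpa using h0
      intro i
      have h1 : red y i = 0 := by rw [this]; rfl
      rw [red_apply, cast_two_eq_zero_iff] at h1
      omega
    have hd : ∀ i, y i = 2 * (y i / 2) := fun i => by
      have := hall i
      omega
    have hn2 : ∑ i, (y i / 2) ^ 2 = 2 := by
      have h1 : ∑ i, (y i) ^ 2 = 8 := by rw [← hn, dot_self_eq]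
      have h2 : ∑ i, (y i) ^ 2 = 4 * ∑ i, (y i / 2) ^ 2 := by
        rw [Finset.mul_sum]
        apply Finset.sum_congr rfl
        intro i _
        conv_lhs => rw [hd i]
        ring
      omega
    obtain ⟨g, hg⟩ := classify_four _ hn2
    refine ⟨g, ?_⟩
    rw [← hg]
    funext i
    simp only [Pi.smul_apply, smul_eq_mul]
    have := hd i
    omega
  · left
    set S := Finset.univ.filter fun i => y i % 2 = 1 with hS
    have hcard : S.card = 8 := by
      rw [← hamming_ind, ← red_eq_ind]
      exact h8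
    have hmem : S ∈ octs Λ := by
      simp only [octs, Finset.mem_filter, Finset.mem_univ, true_and]
      refine ⟨hcard, ?_⟩
      rw [← red_eq_ind]
      exact mem_codeC.2 ⟨y, hy, rfl⟩
    have hzero : ∀ i, (y i) ^ 2 - y i % 2 = 0 := by
      have h1 : ∑ i, ((y i) ^ 2 - y i % 2) = 0 := by
        rw [Finset.sum_sub_distrib, ← dot_self_eq, hn, ← hH, h8]
        norm_num
      have := (Finset.sum_eq_zero_iff_of_nonneg (fun i _ => sub_nonneg.2 (hle i))).1 h1
      exact fun i => this i (Finset.mem_univ i)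
    refine ⟨S, hmem, fun i hi => ?_, fun i hi => ?_⟩
    · have h1 : y i % 2 = 1 := by simpa [hS] using hi
      have := hzero i
      omega
    · have h1 : y i % 2 ≠ 1 := by simpa [hS] using hi
      have h2 := hzero i
      have h3 : y i % 2 = 0 := by omega
      rw [h3] at h2
      simpa using h2

/-- Classification of the norm-32 vectors. -/
lemma classify (h : Core Λ) {u : V} (hu : u ∈ Λ) (hn : dot u u = 32) :
    (∃ p, (u p) ^ 2 = 9 ∧ ∀ i, i ≠ p → (u i) ^ 2 = 1) ∨
      (∃ S ∈ octs Λ, (∀ i ∈ S, (u i) ^ 2 = 4) ∧ ∀ i, i ∉ S → u i = 0) ∨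
      ∃ g, u = fourMap g := by
  have hpar := parity h hu
  by_cases h0 : u 0 % 2 = 1
  · left
    refine classify_odd u (fun i => ?_) hn
    have := hpar i 0
    omega
  · right
    have hall : ∀ i, u i % 2 = 0 := fun i => by
      have := hpar i 0
      omega
    have hd : u = (2 : ℤ) • (fun i => u i / 2) := by
      funext i
      simp only [Pi.smul_apply, smul_eq_mul]
      have := hall i
      omega
    set y : V := fun i => u i / 2 with hy
    have hy1 : (2 : ℤ) • y ∈ Λ := by rw [← hd]; exact hu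
    have hy2 : dot y y = 8 := by
      rw [hd, dot_two] at hn
      omega
    rcases classify_even h hy1 hy2 with ⟨S, hS, h1, h2⟩ | ⟨g, hg⟩
    · left
      refine ⟨S, hS, fun i hi => ?_, fun i hi => ?_⟩
      · rw [hd]
        simp only [Pi.smul_apply, smul_eq_mul]
        rw [mul_pow, h1 i hi]
        norm_num
      · rw [hd]
        simp only [Pi.smul_apply, smul_eq_mul]
        rw [h2 i hi]
        norm_num
    · right
      exact ⟨g, by rw [hd, hg]⟩

/-- Two distinct octads meet in at most four points. -/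
lemma octs_inter (h : Core Λ) {S S' : Finset (Fin 24)} (hS : S ∈ octs Λ) (hS' : S' ∈ octs Λ)
    (hne : S ≠ S') : (S ∩ S').card ≤ 4 := by
  simp only [octs, Finset.mem_filter, Finset.mem_univ, true_and] at hS hS'
  have h1 : ind (symmDiff S S') ∈ codeC Λ := by
    rw [ind_symmDiff]
    exact (codeC Λ).add_mem hS.2 hS'.2
  have h2 := codeC_four h _ h1
  have h3 := codeC_no4 h _ h1
  rw [hamming_ind] at h2 h3
  have h4 : (symmDiff S S').card + 2 * (S ∩ S').card = S.card + S'.card := by
    have e1 : (S \ S').card + (S ∩ S').card = S.card := Finset.card_sdiff_add_card_inter S S'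
    have e2 : (S' \ S).card + (S' ∩ S).card = S'.card := Finset.card_sdiff_add_card_inter S' S
    have e3 : (symmDiff S S').card = (S \ S').card + (S' \ S).card := by
      unfold symmDiff
      rw [Finset.sup_eq_union, Finset.card_union_of_disjoint]
      exact Finset.disjoint_left.2 fun a ha hb => by
        simp only [Finset.mem_sdiff] at ha hb
        exact ha.2 hb.1
    rw [Finset.inter_comm] at e2
    omega
  have h5 : (symmDiff S S').card ≠ 0 := by
    intro h0
    have := Finset.card_eq_zero.1 h0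
    exact hne (symmDiff_eq_bot.1 this)
  obtain ⟨k, hk⟩ := h2
  rw [hS.1, hS'.1] at h4
  omega

lemma card_octs_le (h : Core Λ) : (octs Λ).card ≤ 759 := by
  classical
  have hdisj : ∀ S ∈ octs Λ, ∀ S' ∈ octs Λ, S ≠ S' →
      Disjoint (Finset.powersetCard 5 S) (Finset.powersetCard 5 S') := by
    intro S hS S' hS' hne
    refine Finset.disjoint_left.2 fun X h1 h2 => ?_
    rw [Finset.mem_powersetCard] at h1 h2
    have h3 : X ⊆ S ∩ S' := Finset.subset_inter h1.1 h2.1
    have h4 := Finset.card_le_card h3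
    have h5 := octs_inter h hS hS' hne
    omega
  have h1 := Finset.card_biUnion hdisj
  have h2 : ∀ S ∈ octs Λ, (Finset.powersetCard 5 S).card = 56 := by
    intro S hS
    simp only [octs, Finset.mem_filter, Finset.mem_univ, true_and] at hS
    rw [Finset.card_powersetCard, hS.1]
    rfl
  rw [Finset.sum_congr rfl h2] at h1
  have h3 : (octs Λ).biUnion (fun S => Finset.powersetCard 5 S) ⊆
      Finset.powersetCard 5 (Finset.univ : Finset (Fin 24)) := by
    intro X hX
    rw [Finset.mem_biUnion] at hX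
    obtain ⟨S, -, hX⟩ := hX
    rw [Finset.mem_powersetCard] at hX ⊢
    exact ⟨Finset.subset_univ _, hX.2⟩
  have h4 := Finset.card_le_card h3
  rw [h1, Finset.card_powersetCard] at h4
  simp only [Finset.sum_const, smul_eq_mul, Finset.card_univ, Fintype.card_fin] at h4
  have h5 : Nat.choose 24 5 = 42504 := by decide
  omega

end Cfsg.Agent.LeechChar
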