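import Mathlib
import Cfsg.Agent.LeechChar.Core3

set_option autoImplicit false

namespace Cfsg.Agent.LeechChar

open Cfsg Cfsg.Agent.Lib.LeechSet

variable {Λ : AddSubgroup V}

lemma T_finite (h : Core Λ) : {u : V | u ∈ Λ ∧ dot u u = 32}.Finite :=
  Set.finite_of_ncard_ne_zero (by rw [h.count]; norm_num)

/-- The norm-32 vectors as a finset. -/
noncomputable def normT (h : Core Λ) : Finset V := (T_finite h).toFinset

lemma mem_normT (h : Core Λ) {u : V} : u ∈ normT h ↔ u ∈ Λ ∧ dot u u = 32 := by
  simp [normT]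

lemma card_normT (h : Core Λ) : (normT h).card = 196560 := by
  rw [← h.count, Set.ncard_eq_toFinset_card _ (T_finite h)]
  rfl

lemma sq_four_cases {t : ℤ} (h : t ^ 2 = 4) : t = 2 ∨ t = -2 := by
  have : (t - 2) * (t + 2) = 0 := by ring_nf; linarith
  rcases mul_eq_zero.1 this with h | h
  · left; omega
  · right; omega

lemma sq_nine_cases {t : ℤ} (h : t ^ 2 = 9) : t = 3 ∨ t = -3 := by
  have : (t - 3) * (t + 3) = 0 := by ring_nf; linarith
  rcases mul_eq_zero.1 this with h | h
  · left; omega
  · right; omega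

open Classical in
/-- The vectors of norm 32 over a given octad. -/
noncomputable def fibreOct (h : Core Λ) (S : Finset (Fin 24)) : Finset V :=
  (normT h).filter (fun u => (∀ i ∈ S, (u i) ^ 2 = 4) ∧ ∀ i, i ∉ S → u i = 0)

lemma card_fibreOct_le (h : Core Λ) (S : Finset (Fin 24)) (hS : S.card = 8) :
    (fibreOct h S).card ≤ 128 := by
  classical
  rcases (fibreOct h S).eq_empty_or_nonempty with h0 | ⟨u₀, hu₀⟩
  · rw [h0]; simp
  obtain ⟨i₀, hi₀⟩ : S.Nonempty := by
    rw [← Finset.card_pos]; omega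
  simp only [fibreOct, Finset.mem_filter, mem_normT] at hu₀
  obtain ⟨⟨hu₀1, -⟩, hu₀2, -⟩ := hu₀
  have hcard : (Finset.powerset (S.erase i₀)).card = 128 := by
    rw [Finset.card_powerset, Finset.card_erase_of_mem hi₀, hS]
    norm_num
  rw [← hcard]
  refine Finset.card_le_card_of_injOn (fun u => (S.erase i₀).filter (fun i => u i ≠ u₀ i)) ?_ ?_
  · intro u _
    simp only [Finset.coe_powerset, Set.mem_preimage, Set.mem_powerset_iff]
    exact_mod_cast Finset.filter_subset _ _
  · intro u hu u' hu' heq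
    simp only [fibreOct, Finset.coe_filter, Set.mem_ofPred_eq, mem_normT] at hu hu'
    obtain ⟨⟨hu1, -⟩, hu2, hu3⟩ := hu
    obtain ⟨⟨hu'1, -⟩, hu'2, hu'3⟩ := hu'
    simp only at heq
    have hother : ∀ i, i ≠ i₀ → u i = u' i := by
      intro i hi
      by_cases hiS : i ∈ S
      · have hm : i ∈ S.erase i₀ := Finset.mem_erase.2 ⟨hi, hiS⟩
        have h1 : (i ∈ (S.erase i₀).filter (fun i => u i ≠ u₀ i)) ↔
            (i ∈ (S.erase i₀).filter (fun i => u' i ≠ u₀ i)) := by rw [heq]
        simp only [Finset.mem_filter, hm, true_and] at h1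
        rcases sq_four_cases (hu2 i hiS) with a | a <;>
          rcases sq_four_cases (hu'2 i hiS) with b | b <;>
          rcases sq_four_cases (hu₀2 i hiS) with c | c <;>
          rw [a, b, c] at h1 <;> rw [a, b] <;> first | rfl | (exfalso; revert h1; norm_num)
      · rw [hu3 i hiS, hu'3 i hiS]
    have hv : u - u' ∈ Λ := Λ.sub_mem hu1 hu'1
    have hd : dot (u - u') (u - u') = ((u - u') i₀) ^ 2 := by
      rw [dot_self_eq]
      refine Finset.sum_eq_single i₀ (fun i _ hi => ?_) (by simp)
      simp [hother i hi]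
    have h0 : u i₀ = u' i₀ := by
      by_contra hne
      apply h.noroot _ hv
      rw [hd]
      simp only [Pi.sub_apply]
      rcases sq_four_cases (hu2 i₀ hi₀) with a | a <;>
        rcases sq_four_cases (hu'2 i₀ hi₀) with b | b <;>
        rw [a, b] at hne ⊢ <;> first | exact absurd rfl hne | norm_num
    funext i
    by_cases hi : i = i₀
    · rw [hi, h0]
    · exact hother i hi

open Classical in
/-- The code as a finset. -/
noncomputable def codeSet (Λ : AddSubgroup V) : Finset (Fin 24 → ZMod 2) :=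
  Finset.univ.filter (· ∈ codeC Λ)

lemma card_codeSet (Λ : AddSubgroup V) :
    (codeSet Λ).card = 2 ^ Module.finrank (ZMod 2) (codeC Λ) := by
  classical
  have h1 := Module.card_eq_pow_finrank (K := ZMod 2) (V := codeC Λ)
  rw [ZMod.card] at h1
  rw [← h1, Fintype.card_subtype]
  rfl

open Classical in
/-- The norm-32 vectors with their large coordinate at `p`. -/
noncomputable def fibreOdd (h : Core Λ) (p : Fin 24) : Finset V :=
  (normT h).filter (fun u => (u p) ^ 2 = 9 ∧ ∀ i, i ≠ p → (u i) ^ 2 = 1)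

lemma odd_of_sq {t : ℤ} (h : t ^ 2 = 1 ∨ t ^ 2 = 9) : t % 2 = 1 := by
  by_contra hne
  obtain ⟨k, rfl⟩ : ∃ k, t = 2 * k := ⟨t / 2, by omega⟩
  have : (2 * k) ^ 2 = 4 * k ^ 2 := by ring
  rw [this] at h
  omega

lemma fibreOdd_sq (h : Core Λ) {p : Fin 24} {u : V} (hu : u ∈ fibreOdd h p) (i : Fin 24) :
    (u i) ^ 2 = 1 ∨ (u i) ^ 2 = 9 := by
  simp only [fibreOdd, Finset.mem_filter] at hu
  by_cases hi : i = p
  · subst hi
    exact Or.inr hu.2.1
  · exact Or.inl (hu.2.2 i hi)

lemma card_fibreOdd_le (h : Core Λ) (p : Fin 24) : (fibreOdd h p).card ≤ (codeSet Λ).card := by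
  classical
  rcases (fibreOdd h p).eq_empty_or_nonempty with h0 | ⟨u₀, hu₀⟩
  · rw [h0]; simp
  refine Finset.card_le_card_of_injOn (fun u => red (fun i => (u i - u₀ i) / 2)) ?_ ?_
  · intro u hu
    simp only [codeSet, Finset.coe_filter, Finset.mem_univ, true_and, Set.mem_ofPred_eq]
    refine mem_codeC.2 ⟨_, ?_, rfl⟩
    have h1 : (2 : ℤ) • (fun i => (u i - u₀ i) / 2 : V) = u - u₀ := by
      funext i
      simp only [Pi.smul_apply, smul_eq_mul, Pi.sub_apply]
      have a := odd_of_sq (fibreOdd_sq h hu i)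
      have b := odd_of_sq (fibreOdd_sq h hu₀ i)
      omega
    rw [h1]
    have a : u ∈ normT h := (Finset.mem_filter.1 hu).1
    have b : u₀ ∈ normT h := (Finset.mem_filter.1 hu₀).1
    exact Λ.sub_mem ((mem_normT h).1 a).1 ((mem_normT h).1 b).1
  · intro u hu u' hu' heq
    have hu : u ∈ fibreOdd h p := hu
    have hu' : u' ∈ fibreOdd h p := hu'
    funext i
    have h1 : red (fun i => (u i - u₀ i) / 2) i = red (fun i => (u' i - u₀ i) / 2) i := by
      exact congrFun heq i
    simp only [red_apply] at h1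
    have h2 : (2 : ℤ) ∣ (u i - u₀ i) / 2 - (u' i - u₀ i) / 2 := by
      rw [← cast_two_eq_zero_iff]
      push_cast
      rw [h1]
      simp
    have a := odd_of_sq (fibreOdd_sq h hu i)
    have b := odd_of_sq (fibreOdd_sq h hu' i)
    have c := odd_of_sq (fibreOdd_sq h hu₀ i)
    have h3 : (4 : ℤ) ∣ u i - u' i := by omega
    have hsq : (u i) ^ 2 = (u' i) ^ 2 := by
      simp only [fibreOdd, Finset.mem_filter] at hu hu'
      by_cases hi : i = p
      · subst hi
        rw [hu.2.1, hu'.2.1]
      · rw [hu.2.2 i hi, hu'.2.2 i hi]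
    have h4 : (u i - u' i) * (u i + u' i) = 0 := by ring_nf; linarith
    rcases mul_eq_zero.1 h4 with h5 | h5
    · omega
    · omega

/-- Counting consequences: the code has dimension 12 and there is an odd vector. -/
theorem count_result (h : Core Λ) :
    Module.finrank (ZMod 2) (codeC Λ) = 12 ∧ ∃ x₀ ∈ Λ, dot x₀ x₀ = 32 ∧ ∀ i, x₀ i % 2 = 1 := by
  classical
  have hsub : normT h ⊆ ((Finset.univ : Finset (Fin 24)).biUnion (fibreOdd h)) ∪
      (((octs Λ).biUnion (fibreOct h)) ∪ (Finset.univ.image fourMap)) := by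
    intro u hu
    have hu' := (mem_normT h).1 hu
    simp only [Finset.mem_union, Finset.mem_biUnion, Finset.mem_image, Finset.mem_univ, true_and]
    rcases classify h hu'.1 hu'.2 with ⟨p, h1, h2⟩ | ⟨S, hS, h1, h2⟩ | ⟨g, hg⟩
    · left
      exact ⟨p, by simp only [fibreOdd, Finset.mem_filter]; exact ⟨hu, h1, h2⟩⟩
    · right; left
      exact ⟨S, hS, by simp only [fibreOct, Finset.mem_filter]; exact ⟨hu, h1, h2⟩⟩
    · right; right
      exact ⟨g, hg.symm⟩
  have h1 := Finset.card_le_card hsub
  rw [card_normT] at h1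
  have h2 : (((Finset.univ : Finset (Fin 24)).biUnion (fibreOdd h))).card ≤ 24 * (codeSet Λ).card := by
    have := Finset.card_biUnion_le_card_mul (Finset.univ : Finset (Fin 24)) (fibreOdd h)
      (codeSet Λ).card (fun p _ => card_fibreOdd_le h p)
    simpa using this
  have h3 : ((octs Λ).biUnion (fibreOct h)).card ≤ 759 * 128 := by
    have := Finset.card_biUnion_le_card_mul (octs Λ) (fibreOct h) 128 (fun S hS => by
      refine card_fibreOct_le h S ?_
      simp only [octs, Finset.mem_filter, Finset.mem_univ, true_and] at hS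
      exact hS.1)
    have h4 := card_octs_le h
    nlinarith
  have h5 : ((Finset.univ : Finset (Fin 24 × Fin 24 × Bool × Bool)).image fourMap).card ≤ 2304 := by
    refine Finset.card_image_le.trans ?_
    simp [Finset.card_univ]
  have h6 := Finset.card_union_le ((Finset.univ : Finset (Fin 24)).biUnion (fibreOdd h))
      (((octs Λ).biUnion (fibreOct h)) ∪ (Finset.univ.image fourMap))
  have h7 := Finset.card_union_le ((octs Λ).biUnion (fibreOct h))
      ((Finset.univ : Finset (Fin 24 × Fin 24 × Bool × Bool)).image fourMap)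
  constructor
  · apply le_antisymm (codeC_finrank_le h)
    by_contra hlt
    have h8 : Module.finrank (ZMod 2) (codeC Λ) ≤ 11 := by omega
    have h9 : (codeSet Λ).card ≤ 2048 := by
      rw [card_codeSet]
      calc 2 ^ Module.finrank (ZMod 2) (codeC Λ) ≤ 2 ^ 11 := Nat.pow_le_pow_right (by norm_num) h8
        _ = 2048 := by norm_num
    omega
  · have h10 : ((Finset.univ : Finset (Fin 24)).biUnion (fibreOdd h)).Nonempty := by
      rw [← Finset.card_pos]
      omega
    obtain ⟨u, hu⟩ := h10
    rw [Finset.mem_biUnion] at hu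
    obtain ⟨p, -, hu⟩ := hu
    have hu2 : u ∈ normT h := (Finset.mem_filter.1 hu).1
    have hu3 := (mem_normT h).1 hu2
    exact ⟨u, hu3.1, hu3.2, fun i => odd_of_sq (fibreOdd_sq h hu i)⟩

end Cfsg.Agent.LeechChar
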