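import Mathlib
import Cfsg.Agent.LeechChar.Core4
import Cfsg.Agent.S0375
import Cfsg.Prelude.Def_Spor_Conway

set_option autoImplicit false

namespace Cfsg.Agent.LeechChar

open Cfsg Cfsg.Agent.Lib.LeechSet

variable {Λ : AddSubgroup V}

/-- Twisted transport to the Golay coordinates. -/
def tw (e : Fin 24 ≃ GolayPt) (ε : Fin 24 → ℤ) (u : V) : GolayPt → ℤ :=
  fun p => ε (e.symm p) * u (e.symm p)

lemma tw_add (e : Fin 24 ≃ GolayPt) (ε : Fin 24 → ℤ) (u v : V) :
    tw e ε (u + v) = tw e ε u + tw e ε v := by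
  funext p
  simp [tw, mul_add]

lemma tw_neg (e : Fin 24 ≃ GolayPt) (ε : Fin 24 → ℤ) (u : V) :
    tw e ε (-u) = - tw e ε u := by
  funext p
  simp [tw]

lemma sum_tw (e : Fin 24 ≃ GolayPt) (ε : Fin 24 → ℤ) (u : V) :
    ∑ p, tw e ε u p = ∑ i, ε i * u i :=
  Equiv.sum_comp e.symm (fun i => ε i * u i)

lemma aux_odd {ε y : ℤ} (hε : ε = 1 ∨ ε = -1) (hy : y % 2 = 1) : (ε * (2 * y)) % 4 = 2 := by
  rcases hε with rfl | rfl <;> omega

lemma aux_even {ε y : ℤ} (hε : ε = 1 ∨ ε = -1) (hy : y % 2 = 0) : (ε * (2 * y)) % 4 = 0 := by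
  rcases hε with rfl | rfl <;> omega

lemma even_forward {e : Fin 24 ≃ GolayPt} {ε : Fin 24 → ℤ}
    (he : ∀ w : GolayPt → ZMod 2, w ∈ golayCode ↔ (fun i => w (e i)) ∈ codeC Λ)
    (hε : ∀ i, ε i = 1 ∨ ε i = -1) (hmod : ∀ y : V, (2 : ℤ) • y ∈ Λ → (4 : ℤ) ∣ ∑ i, ε i * y i)
    {y : V} (hy : (2 : ℤ) • y ∈ Λ) : tw e ε ((2 : ℤ) • y) ∈ leechSet := by
  classical
  have htw : ∀ p, tw e ε ((2 : ℤ) • y) p = ε (e.symm p) * (2 * y (e.symm p)) := fun p => rfl
  refine ⟨0, fun i => ?_, ?_, fun k => ?_⟩
  · rw [htw]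
    unfold Int.ModEq
    rcases hε (e.symm i) with h | h <;> rw [h] <;> omega
  · rw [sum_tw]
    obtain ⟨c, hc⟩ := hmod y hy
    have : ∑ i, ε i * ((2 : ℤ) • y) i = 2 * ∑ i, ε i * y i := by
      rw [Finset.mul_sum]
      apply Finset.sum_congr rfl
      intro i _
      simp only [Pi.smul_apply, smul_eq_mul]
      ring
    rw [this, hc]
    unfold Int.ModEq
    omega
  · set w : GolayPt → ZMod 2 := fun p => red y (e.symm p) with hw
    have hwmem : w ∈ golayCode := by
      rw [he]
      have : (fun i => w (e i)) = red y := by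
        funext i
        simp [hw]
      rw [this]
      exact mem_codeC.2 ⟨y, hy, rfl⟩
    have hsupp : support₂ w ∈ supports (golayCode : Set (GolayPt → ZMod 2)) := ⟨w, hwmem, rfl⟩
    have hmemw : ∀ p, p ∈ support₂ w ↔ y (e.symm p) % 2 = 1 := by
      intro p
      simp only [support₂, Finset.mem_filter, Finset.mem_univ, true_and, hw, red_apply, ne_eq]
      rw [cast_two_eq_zero_iff]
      omega
    have hk : k % 4 = 0 ∨ k % 4 = 2 ∨ k % 2 = 1 := by omega
    rcases hk with hk | hk | hk
    · convert compl_mem_golay hsupp using 1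
      ext p
      simp only [Finset.mem_filter, Finset.mem_univ, true_and, Finset.mem_compl, hmemw, htw]
      unfold Int.ModEq
      constructor
      · intro h1 h2
        have := aux_odd (hε (e.symm p)) h2
        omega
      · intro h1
        have h2 : y (e.symm p) % 2 = 0 := by omega
        have := aux_even (hε (e.symm p)) h2
        omega
    · convert hsupp using 1
      ext p
      simp only [Finset.mem_filter, Finset.mem_univ, true_and, hmemw, htw]
      unfold Int.ModEq
      constructor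
      · intro h1
        by_contra h2
        have h3 : y (e.symm p) % 2 = 0 := by omega
        have := aux_even (hε (e.symm p)) h3
        omega
      · intro h1
        have := aux_odd (hε (e.symm p)) h1
        omega
    · convert (empty_mem_supports (C := golayCode)) using 1
      ext p
      simp only [Finset.mem_filter, Finset.mem_univ, true_and, htw, Finset.notMem_empty, iff_false]
      unfold Int.ModEq
      intro h1
      have h2 : y (e.symm p) % 2 = 0 ∨ y (e.symm p) % 2 = 1 := by omega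
      rcases h2 with h2 | h2
      · have := aux_even (hε (e.symm p)) h2
        omega
      · have := aux_odd (hε (e.symm p)) h2
        omega

lemma even_backward (h : Core Λ) {e : Fin 24 ≃ GolayPt} {ε : Fin 24 → ℤ}
    (he : ∀ w : GolayPt → ZMod 2, w ∈ golayCode ↔ (fun i => w (e i)) ∈ codeC Λ)
    (hε : ∀ i, ε i = 1 ∨ ε i = -1) (hmod : ∀ y : V, (2 : ℤ) • y ∈ Λ → (4 : ℤ) ∣ ∑ i, ε i * y i)
    {y : V} (hz : tw e ε ((2 : ℤ) • y) ∈ leechSet) : (2 : ℤ) • y ∈ Λ := by
  classical
  have htw : ∀ p, tw e ε ((2 : ℤ) • y) p = ε (e.symm p) * (2 * y (e.symm p)) := fun p => rfl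
  obtain ⟨m, hm1, hm2, hm3⟩ := hz
  have hm : m % 2 = 0 := by
    have h1 := hm1 (e 0)
    rw [htw] at h1
    unfold Int.ModEq at h1
    rcases hε (e.symm (e 0)) with h2 | h2 <;> rw [h2] at h1 <;> omega
  have hS := hm3 2
  rw [mem_supports_iff, SetLike.mem_coe, he] at hS
  have hw : (fun i => ind (Finset.univ.filter fun p => tw e ε ((2 : ℤ) • y) p ≡ 2 [ZMOD 4]) (e i))
      = red y := by
    funext i
    simp only [ind, Finset.mem_filter, Finset.mem_univ, true_and, htw, red_apply,
      Equiv.symm_apply_apply]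
    have h0 : y i % 2 = 0 ∨ y i % 2 = 1 := by omega
    rcases h0 with h0 | h0
    · have hn : ¬ (ε i * (2 * y i) ≡ 2 [ZMOD 4]) := by
        unfold Int.ModEq
        have := aux_even (hε i) h0
        omega
      rw [if_neg hn]
      exact ((cast_two_eq_zero_iff _).2 (by omega)).symm
    · have hn : (ε i * (2 * y i) ≡ 2 [ZMOD 4]) := by
        unfold Int.ModEq
        have := aux_odd (hε i) h0
        omega
      rw [if_pos hn]
      refine (zmod2_eq_of_ne ?_).symm
      intro h1
      rw [cast_two_eq_zero_iff] at h1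
      omega
  rw [hw] at hS
  obtain ⟨y', hy', hred⟩ := mem_codeC.1 hS
  -- the difference is divisible by 2
  have hdiv : ∀ i, (2 : ℤ) ∣ y i - y' i := by
    intro i
    rw [← cast_two_eq_zero_iff]
    push_cast
    have := congrFun hred i
    simp only [red_apply] at this
    rw [this]
    simp
  choose a ha using hdiv
  have hsum : (2 : ℤ) ∣ ∑ i, a i := by
    have h1 : ∑ i, ε i * ((2 : ℤ) • y) i = ∑ i, ε i * ((2 : ℤ) • y') i + 4 * ∑ i, ε i * a i := by
      rw [Finset.mul_sum, ← Finset.sum_add_distrib]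
      apply Finset.sum_congr rfl
      intro i _
      simp only [Pi.smul_apply, smul_eq_mul]
      have := ha i
      have e1 : y i = y' i + 2 * a i := by omega
      rw [e1]
      ring
    have h2 : (8 : ℤ) ∣ ∑ i, ε i * ((2 : ℤ) • y) i := by
      rw [← sum_tw e]
      unfold Int.ModEq at hm2
      omega
    have h3 : (8 : ℤ) ∣ ∑ i, ε i * ((2 : ℤ) • y') i := by
      obtain ⟨c, hc⟩ := hmod y' hy'
      have : ∑ i, ε i * ((2 : ℤ) • y') i = 2 * ∑ i, ε i * y' i := by
        rw [Finset.mul_sum]
        apply Finset.sum_congr rfl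
        intro i _
        simp only [Pi.smul_apply, smul_eq_mul]
        ring
      rw [this, hc]
      omega
    have h4 : (2 : ℤ) ∣ ∑ i, ε i * a i := by omega
    have h5 : (2 : ℤ) ∣ ∑ i, a i - ∑ i, ε i * a i := by
      rw [← Finset.sum_sub_distrib]
      refine Finset.dvd_sum fun i _ => ?_
      rcases hε i with h | h <;> rw [h] <;> omega
    omega
  have h4 := mem_four h a hsum
  have h5 := Λ.add_mem hy' h4
  convert h5 using 1
  funext i
  simp only [Pi.smul_apply, Pi.add_apply, smul_eq_mul]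
  have := ha i
  omega

/-- Main theorem of the core part. -/
theorem core_main (h : Core Λ) : ∃ (e : Fin 24 ≃ GolayPt) (ε : Fin 24 → ℤ),
    (∀ i, ε i = 1 ∨ ε i = -1) ∧ ∀ u : V, u ∈ Λ ↔ tw e ε u ∈ leechSet := by
  classical
  obtain ⟨hdim, x₀, hx₀, hx₀n, hx₀o⟩ := count_result h
  obtain ⟨e, he⟩ := Cfsg.Agent.S0375.result (codeC Λ) hdim (codeC_orth h) (codeC_four h) (codeC_no4 h)
  set ε : Fin 24 → ℤ := fun i => if x₀ i % 4 = 1 then 1 else -1 with hεdef
  have hε : ∀ i, ε i = 1 ∨ ε i = -1 := by
    intro i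
    simp only [hεdef]
    split_ifs <;> simp
  have ht : ∀ i, (ε i * x₀ i) % 4 = 1 := by
    intro i
    have := hx₀o i
    simp only [hεdef]
    split_ifs with h1
    · omega
    · omega
  have hd : ∀ i, (4 : ℤ) ∣ x₀ i - ε i := by
    intro i
    have := hx₀o i
    simp only [hεdef]
    split_ifs with h1
    · omega
    · omega
  have hmod : ∀ y : V, (2 : ℤ) • y ∈ Λ → (4 : ℤ) ∣ ∑ i, ε i * y i := by
    intro y hy
    have h1 := h.dot8 _ hx₀ _ hy
    rw [dot_smul_right] at h1
    have h2 : (4 : ℤ) ∣ dot x₀ y := by omega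
    have h3 : (4 : ℤ) ∣ dot x₀ y - ∑ i, ε i * y i := by
      unfold dot
      rw [← Finset.sum_sub_distrib]
      refine Finset.dvd_sum fun i _ => ?_
      have : x₀ i * y i - ε i * y i = (x₀ i - ε i) * y i := by ring
      rw [this]
      exact Dvd.dvd.mul_right (hd i) _
    omega
  -- the sum of the twisted base vector
  have hsum0 : (∑ i, ε i * x₀ i) % 8 = 4 := by
    have hn : ∀ i, ∃ n : ℤ, ε i * x₀ i = 1 + 4 * n := fun i => ⟨(ε i * x₀ i - 1) / 4, by
      have := ht i
      omega⟩
    choose n hn using hn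
    have h1 : ∑ i, (ε i * x₀ i) ^ 2 = 32 := by
      rw [← hx₀n, dot_self_eq]
      apply Finset.sum_congr rfl
      intro i _
      have : (ε i) ^ 2 = 1 := by
        rcases hε i with h | h <;> rw [h] <;> norm_num
      rw [mul_pow, this, one_mul]
    have h2 : ∑ i, (ε i * x₀ i) ^ 2 = 24 + 8 * ∑ i, n i + 16 * ∑ i, (n i) ^ 2 := by
      simp only [hn]
      have : ∀ i, (1 + 4 * n i) ^ 2 = 1 + 8 * n i + 16 * (n i) ^ 2 := fun i => by ring
      simp only [this, Finset.sum_add_distrib, ← Finset.mul_sum]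
      simp
    have h3 : ∑ i, ε i * x₀ i = 24 + 4 * ∑ i, n i := by
      simp only [hn, Finset.sum_add_distrib, ← Finset.mul_sum]
      simp
    rw [h3]
    omega
  have hz0 : tw e ε x₀ ∈ leechSet := by
    refine Spor.mem_leechSet_of_const_mod_four _ 1 1 rfl (fun p => ?_) ?_
    · show (ε (e.symm p) * x₀ (e.symm p)) % 4 = 1 % 4
      rw [ht]
      rfl
    · rw [sum_tw]
      show _ % 8 = (4 * 1) % 8
      rw [hsum0]
      rfl
  have hpar2 : ∀ u : V, (∀ i, u i % 2 = 0) → u = (2 : ℤ) • (fun i => u i / 2 : V) := by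
    intro u hu
    funext i
    simp only [Pi.smul_apply, smul_eq_mul]
    have := hu i
    omega
  refine ⟨e, ε, hε, fun u => ⟨fun hu => ?_, fun hz => ?_⟩⟩
  · by_cases h0 : u 0 % 2 = 0
    · have hall : ∀ i, u i % 2 = 0 := fun i => by
        have := parity h hu i 0
        omega
      have h1 := hpar2 u hall
      rw [h1] at hu ⊢
      exact even_forward he hε hmod hu
    · have hall : ∀ i, (u - x₀) i % 2 = 0 := fun i => by
        have h1 := parity h hu i 0
        have h2 := hx₀o i
        simp only [Pi.sub_apply]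
        omega
      have h1 := hpar2 _ hall
      have hsub : u - x₀ ∈ Λ := Λ.sub_mem hu hx₀
      rw [h1] at hsub
      have h2 := even_forward he hε hmod hsub
      rw [← h1] at h2
      have h3 := leechSet_add h2 hz0
      rw [← tw_add] at h3
      simpa using h3
  · have hzpar : ∀ i j, (2 : ℤ) ∣ u i + u j := by
      obtain ⟨m, hm1, -, -⟩ := hz
      intro i j
      have h1 := hm1 (e i)
      have h2 := hm1 (e j)
      simp only [tw, Equiv.symm_apply_apply] at h1 h2
      unfold Int.ModEq at h1 h2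
      rcases hε i with a | a <;> rcases hε j with b | b <;> rw [a] at h1 <;> rw [b] at h2 <;> omega
    by_cases h0 : u 0 % 2 = 0
    · have hall : ∀ i, u i % 2 = 0 := fun i => by
        have := hzpar i 0
        omega
      have h1 := hpar2 u hall
      rw [h1] at hz ⊢
      exact even_backward h he hε hmod hz
    · have hall : ∀ i, (u - x₀) i % 2 = 0 := fun i => by
        have h1 := hzpar i 0
        have h2 := hx₀o i
        simp only [Pi.sub_apply]
        omega
      have h1 := hpar2 _ hall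
      have h2 : tw e ε (u - x₀) ∈ leechSet := by
        rw [sub_eq_add_neg, tw_add, tw_neg]
        exact leechSet_add hz (leechSet_neg hz0)
      rw [h1] at h2
      have h3 := even_backward h he hε hmod h2
      rw [← h1] at h3
      have h4 := Λ.add_mem h3 hx₀
      simpa using h4

end Cfsg.Agent.LeechChar
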