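import Mathlib
import Cfsg.Agent.LeechChar.Core2

set_option autoImplicit false

namespace Cfsg.Agent.LeechChar

open Matrix

/-- The inner product defined by a Gram matrix. -/
def ip (B : Matrix (Fin 24) (Fin 24) ℤ) (x y : V) : ℤ := x ⬝ᵥ (B *ᵥ y)

variable {B : Matrix (Fin 24) (Fin 24) ℤ}

lemma ip_add_left (x x' y : V) : ip B (x + x') y = ip B x y + ip B x' y := by
  simp [ip, add_dotProduct]

lemma ip_add_right (x y y' : V) : ip B x (y + y') = ip B x y + ip B x y' := by
  simp [ip, mulVec_add, dotProduct_add]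

lemma ip_neg_left (x y : V) : ip B (-x) y = - ip B x y := by
  simp [ip]

lemma ip_neg_right (x y : V) : ip B x (-y) = - ip B x y := by
  simp [ip, mulVec_neg]

lemma ip_sub_left (x x' y : V) : ip B (x - x') y = ip B x y - ip B x' y := by
  rw [sub_eq_add_neg, ip_add_left, ip_neg_left]; ring

lemma ip_sub_right (x y y' : V) : ip B x (y - y') = ip B x y - ip B x y' := by
  rw [sub_eq_add_neg, ip_add_right, ip_neg_right]; ring

lemma ip_smul_left (c : ℤ) (x y : V) : ip B (c • x) y = c * ip B x y := by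
  unfold ip
  rw [smul_dotProduct, smul_eq_mul]

lemma ip_smul_right (c : ℤ) (x y : V) : ip B x (c • y) = c * ip B x y := by
  unfold ip
  rw [mulVec_smul, dotProduct_smul, smul_eq_mul]

lemma ip_zero_left (y : V) : ip B 0 y = 0 := by
  simp [ip]

lemma ip_comm (hs : B.IsSymm) (x y : V) : ip B x y = ip B y x := by
  unfold ip
  rw [dotProduct_mulVec, ← hs.eq, vecMul_transpose, hs.eq, dotProduct_comm]

/-- The hypotheses on the form. -/
structure FormHyp (B : Matrix (Fin 24) (Fin 24) ℤ) : Prop where
  symm : B.IsSymm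
  pos : ∀ x : V, x ≠ 0 → 0 < ip B x x
  even : ∀ x : V, (2 : ℤ) ∣ ip B x x
  no2 : ∀ x : V, ip B x x ≠ 2

lemma four_le (h : FormHyp B) {x : V} (hx : x ≠ 0) : 4 ≤ ip B x x := by
  have h1 := h.pos x hx
  have h2 := h.even x
  have h3 := h.no2 x
  omega

lemma red_eq_halves {x y : V} (hr : red x = red y) : ∃ u v : V, x = u + v ∧ y = u - v := by
  have hd : ∀ i, (2 : ℤ) ∣ x i - y i := by
    intro i
    rw [← cast_two_eq_zero_iff]
    push_cast
    have := congrFun hr i
    simp only [red_apply] at this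
    rw [this]
    simp
  refine ⟨fun i => (x i + y i) / 2, fun i => (x i - y i) / 2, ?_, ?_⟩
  · funext i
    have := hd i
    simp only [Pi.add_apply]
    omega
  · funext i
    have := hd i
    simp only [Pi.sub_apply]
    omega

lemma par_id (hs : B.IsSymm) (u v : V) :
    ip B (u + v) (u + v) + ip B (u - v) (u - v) = 2 * ip B u u + 2 * ip B v v := by
  simp only [ip_add_left, ip_add_right, ip_sub_left, ip_sub_right]
  rw [ip_comm hs v u]
  ring

lemma claimA (h : FormHyp B) {x y : V} (hr : red x = red y) (hlt : ip B x x + ip B y y < 16) :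
    y = x ∨ y = -x := by
  obtain ⟨u, v, rfl, rfl⟩ := red_eq_halves hr
  have h1 := par_id h.symm u v
  by_cases hu : u = 0
  · subst hu
    right
    simp
  by_cases hv : v = 0
  · subst hv
    left
    simp
  have h2 := four_le h hu
  have h3 := four_le h hv
  omega

lemma claimB (h : FormHyp B) {x y : V} (hr : red x = red y) (hx : ip B x x = 8)
    (hy : ip B y y = 8) : y = x ∨ y = -x ∨ ip B x y = 0 := by
  obtain ⟨u, v, rfl, rfl⟩ := red_eq_halves hr
  have h1 := par_id h.symm u v
  by_cases hu : u = 0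
  · subst hu
    right; left
    simp
  by_cases hv : v = 0
  · subst hv
    left
    simp
  have h2 := four_le h hu
  have h3 := four_le h hv
  right; right
  have h4 : ip B u u = 4 := by omega
  have h5 : ip B v v = 4 := by omega
  simp only [ip_add_left, ip_sub_right]
  rw [h4, h5, ip_comm h.symm v u]
  ring

lemma Q_neg (x : V) : ip B (-x) (-x) = ip B x x := by
  rw [ip_neg_left, ip_neg_right]; ring

open Classical in
/-- Images under reduction with given norms are disjoint. -/
lemma image_disjoint (h : FormHyp B) (s t : Finset V) (a b : ℤ) (hs : ∀ x ∈ s, ip B x x = a)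
    (ht : ∀ y ∈ t, ip B y y = b) (hab : a ≠ b) (hlt : a + b < 16) :
    Disjoint (s.image red) (t.image red) := by
  refine Finset.disjoint_left.2 fun w h1 h2 => ?_
  obtain ⟨x, hx, rfl⟩ := Finset.mem_image.1 h1
  obtain ⟨y, hy, hxy⟩ := Finset.mem_image.1 h2
  have e1 := hs x hx
  have e2 := ht y hy
  rcases claimA h hxy.symm (by omega) with rfl | rfl
  · exact hab (e1.symm.trans e2)
  · rw [Q_neg] at e2
    exact hab (e1.symm.trans e2)

open Classical in
/-- Fibres of reduction on short vectors have at most two points. -/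
lemma card_le_two_mul_image (h : FormHyp B) (s : Finset V) (a : ℤ) (hs : ∀ x ∈ s, ip B x x = a)
    (hlt : a + a < 16) : s.card ≤ 2 * (s.image red).card := by
  refine Finset.card_le_mul_card_image s 2 fun w hw => ?_
  obtain ⟨x, hx, rfl⟩ := Finset.mem_image.1 hw
  have hsub : s.filter (fun y => red y = red x) ⊆ {x, -x} := by
    intro y hy
    rw [Finset.mem_filter] at hy
    have e1 := hs x hx
    have e2 := hs y hy.1
    rcases claimA h hy.2.symm (by omega) with rfl | rfl <;> simp
  exact (Finset.card_le_card hsub).trans Finset.card_le_two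

/-- The pigeonhole step: a big fibre in norm 8. -/
lemma exists_big_fibre (h : FormHyp B) (F4 F6 F8 : Finset V)
    (h4 : ∀ x ∈ F4, ip B x x = 4) (h6 : ∀ x ∈ F6, ip B x x = 6) (h8 : ∀ x ∈ F8, ip B x x = 8)
    (c4 : F4.card = 196560) (c6 : F6.card = 16773120) (c8 : F8.card = 398034000) :
    ∃ F ⊆ F8, 48 ≤ F.card ∧ ∀ x ∈ F, ∀ y ∈ F, red x = red y := by
  classical
  have h0 : ∀ x ∈ ({0} : Finset V), ip B x x = 0 := by
    intro x hx
    rw [Finset.mem_singleton] at hx
    rw [hx, ip_zero_left]
  set R0 := ({0} : Finset V).image red with hR0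
  set R4 := F4.image red with hR4
  set R6 := F6.image red with hR6
  set R8 := F8.image red with hR8
  have d04 : Disjoint R0 R4 := image_disjoint h _ _ 0 4 h0 h4 (by norm_num) (by norm_num)
  have d06 : Disjoint R0 R6 := image_disjoint h _ _ 0 6 h0 h6 (by norm_num) (by norm_num)
  have d08 : Disjoint R0 R8 := image_disjoint h _ _ 0 8 h0 h8 (by norm_num) (by norm_num)
  have d46 : Disjoint R4 R6 := image_disjoint h _ _ 4 6 h4 h6 (by norm_num) (by norm_num)
  have d48 : Disjoint R4 R8 := image_disjoint h _ _ 4 8 h4 h8 (by norm_num) (by norm_num)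
  have d68 : Disjoint R6 R8 := image_disjoint h _ _ 6 8 h6 h8 (by norm_num) (by norm_num)
  have e4 : F4.card ≤ 2 * R4.card := card_le_two_mul_image h F4 4 h4 (by norm_num)
  have e6 : F6.card ≤ 2 * R6.card := card_le_two_mul_image h F6 6 h6 (by norm_num)
  have hR0c : R0.card = 1 := by simp [hR0]
  have hu : (R0 ∪ (R4 ∪ (R6 ∪ R8))).card = R0.card + (R4.card + (R6.card + R8.card)) := by
    rw [Finset.card_union_of_disjoint, Finset.card_union_of_disjoint, Finset.card_union_of_disjoint d68]
    · exact Finset.disjoint_union_right.2 ⟨d46, d48⟩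
    · exact Finset.disjoint_union_right.2 ⟨d04, Finset.disjoint_union_right.2 ⟨d06, d08⟩⟩
  have hle : (R0 ∪ (R4 ∪ (R6 ∪ R8))).card ≤ 16777216 := by
    refine (Finset.card_le_univ _).trans ?_
    simp [ZMod.card]
  have hR8c : R8.card ≤ 8292375 := by
    rw [c4] at e4
    rw [c6] at e6
    rw [hu, hR0c] at hle
    omega
  obtain ⟨r, -, hr⟩ := Finset.exists_lt_card_fiber_of_mul_lt_card_of_maps_to
    (s := F8) (t := R8) (f := red) (n := 47)
    (fun x hx => Finset.mem_image_of_mem _ hx) (by rw [c8]; omega)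
  refine ⟨F8.filter (fun x => red x = r), Finset.filter_subset _ _, hr, ?_⟩
  intro x hx y hy
  rw [(Finset.mem_filter.1 hx).2, (Finset.mem_filter.1 hy).2]

/-- Greedy construction of a pairwise orthogonal subset. -/
lemma greedy (h : FormHyp B) (F : Finset V)
    (hF : ∀ x ∈ F, ∀ y ∈ F, y = x ∨ y = -x ∨ ip B x y = 0) (h48 : 48 ≤ F.card) (k : ℕ)
    (hk : k ≤ 24) :
    ∃ G ⊆ F, G.card = k ∧ ∀ x ∈ G, ∀ y ∈ G, x ≠ y → ip B x y = 0 := by
  classical
  induction k with
  | zero => exact ⟨∅, by simp, by simp, by simp⟩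
  | succ k ih =>
    obtain ⟨G, hGF, hGc, hG⟩ := ih (by omega)
    have hc : (G ∪ G.image (fun x => -x)).card < F.card := by
      have h1 := Finset.card_union_le G (G.image (fun x => -x))
      have h2 : (G.image (fun x => -x)).card ≤ G.card := Finset.card_image_le
      omega
    obtain ⟨z, hzF, hz⟩ := Finset.exists_mem_notMem_of_card_lt_card hc
    rw [Finset.mem_union, not_or] at hz
    have hzG := hz.1
    have hzN : ∀ x ∈ G, z ≠ -x := fun x hx e => hz.2 (Finset.mem_image.2 ⟨x, hx, e.symm⟩)
    have hzorth : ∀ x ∈ G, ip B x z = 0 := by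
      intro x hx
      rcases hF x (hGF hx) z hzF with e | e | e
      · exact absurd (e ▸ hx) hzG
      · exact absurd e (hzN x hx)
      · exact e
    refine ⟨insert z G, Finset.insert_subset hzF hGF, by rw [Finset.card_insert_of_notMem hzG, hGc], ?_⟩
    intro x hx y hy hne
    rw [Finset.mem_insert] at hx hy
    rcases hx with rfl | hx <;> rcases hy with rfl | hy
    · exact absurd rfl hne
    · rw [ip_comm h.symm]
      exact hzorth y hy
    · exact hzorth x hx
    · exact hG x hx y hy hne

/-- Existence of a frame. -/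
theorem exists_frame (h : FormHyp B) (F4 F6 F8 : Finset V)
    (h4 : ∀ x ∈ F4, ip B x x = 4) (h6 : ∀ x ∈ F6, ip B x x = 6) (h8 : ∀ x ∈ F8, ip B x x = 8)
    (c4 : F4.card = 196560) (c6 : F6.card = 16773120) (c8 : F8.card = 398034000) :
    ∃ f : Fin 24 → V, (∀ i j, ip B (f i) (f j) = if i = j then 8 else 0) ∧
      ∀ i j, red (f i) = red (f j) := by
  classical
  obtain ⟨F, hFs, hF48, hFr⟩ := exists_big_fibre h F4 F6 F8 h4 h6 h8 c4 c6 c8
  obtain ⟨G, hGF, hGc, hG⟩ := greedy h F
    (fun x hx y hy => claimB h (hFr x hx y hy) (h8 x (hFs hx)) (h8 y (hFs hy))) hF48 24 le_rfl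
  let e := G.equivFinOfCardEq hGc
  refine ⟨fun i => (e.symm i : V), fun i j => ?_, fun i j => ?_⟩
  · by_cases hij : i = j
    · subst hij
      rw [if_pos rfl]
      exact h8 _ (hFs (hGF (e.symm i).2))
    · rw [if_neg hij]
      refine hG _ (e.symm i).2 _ (e.symm j).2 ?_
      intro h0
      exact hij (e.symm.injective (Subtype.ext h0))
  · exact hFr _ (hGF (e.symm i).2) _ (hGF (e.symm j).2)

end Cfsg.Agent.LeechChar
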