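import Mathlib
import Cfsg.Agent.LeechChar.Form1
import Cfsg.Agent.LeechChar.Core5

set_option autoImplicit false

namespace Cfsg.Agent.LeechChar

open Matrix Cfsg Cfsg.Agent.Lib.LeechSet

variable {B : Matrix (Fin 24) (Fin 24) ℤ}

lemma swap_mul (C A : Matrix (Fin 24) (Fin 24) ℤ) (h : C * A = (8 : ℤ) • 1) :
    A * C = (8 : ℤ) • 1 := by
  have hdet : C.det ≠ 0 := by
    intro h0
    have := congrArg Matrix.det h
    rw [Matrix.det_mul, h0, zero_mul, Matrix.det_smul] at this
    simp at this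
  have h1 : C * (A * C - (8 : ℤ) • 1) = 0 := by
    rw [Matrix.mul_sub, ← Matrix.mul_assoc, h, Matrix.smul_mul, Matrix.one_mul, Matrix.mul_smul,
      Matrix.mul_one, sub_self]
  have h2 : C.adjugate * (C * (A * C - (8 : ℤ) • 1)) = 0 := by rw [h1, Matrix.mul_zero]
  rw [← Matrix.mul_assoc, Matrix.adjugate_mul, Matrix.smul_mul, Matrix.one_mul] at h2
  have h3 := (smul_eq_zero.1 h2).resolve_left hdet
  exact sub_eq_zero.1 h3

/-- The embedding of the lattice into coordinates given by a frame. -/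
def Phi (B : Matrix (Fin 24) (Fin 24) ℤ) (f : Fin 24 → V) : V →+ V where
  toFun x := fun k => ip B (f k) x
  map_zero' := by
    funext k
    simp [ip]
  map_add' a b := by
    funext k
    simp [ip_add_right]

lemma Phi_apply (f : Fin 24 → V) (x : V) (k : Fin 24) : Phi B f x k = ip B (f k) x := rfl

lemma Phi_eq_mulVec (f : Fin 24 → V) (x : V) : Phi B f x = (Matrix.of f) *ᵥ (B *ᵥ x) := rfl

lemma frame_mul {f : Fin 24 → V} (hf : ∀ i j, ip B (f i) (f j) = if i = j then 8 else 0) :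
    (Matrix.of f) * (B * (Matrix.of f)ᵀ) = (8 : ℤ) • 1 := by
  ext i j
  have h1 : ((Matrix.of f) * (B * (Matrix.of f)ᵀ)) i j = ip B (f i) (f j) := rfl
  rw [h1, hf, Matrix.smul_apply, Matrix.one_apply]
  by_cases hij : i = j <;> simp [hij]

lemma dot_Phi (hs : B.IsSymm) {f : Fin 24 → V}
    (hf : ∀ i j, ip B (f i) (f j) = if i = j then 8 else 0) (x y : V) :
    dot (Phi B f x) (Phi B f y) = 8 * ip B x y := by
  have h1 := swap_mul _ _ (frame_mul hf)
  have h2 : dot (Phi B f x) (Phi B f y)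
      = ((Matrix.of f) *ᵥ (B *ᵥ x)) ⬝ᵥ ((Matrix.of f) *ᵥ (B *ᵥ y)) := rfl
  rw [h2, dotProduct_mulVec]
  have h3 : ((Matrix.of f) *ᵥ (B *ᵥ x)) ᵥ* (Matrix.of f) = (8 : ℤ) • x := by
    have e1 : B *ᵥ x = x ᵥ* B := by
      conv_rhs => rw [← hs.eq, vecMul_transpose]
    rw [← vecMul_transpose, e1, vecMul_vecMul, vecMul_vecMul, ← Matrix.mul_assoc, h1, vecMul_smul,
      vecMul_one]
  rw [h3, smul_dotProduct, smul_eq_mul]
  rfl

lemma Phi_injective (h : FormHyp B) {f : Fin 24 → V}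
    (hf : ∀ i j, ip B (f i) (f j) = if i = j then 8 else 0) :
    Function.Injective (Phi B f) := by
  rw [injective_iff_map_eq_zero]
  intro x hx
  by_contra hne
  have h1 := dot_Phi h.symm hf x x
  rw [hx] at h1
  have h2 := h.pos x hne
  have h3 : dot (0 : V) 0 = 0 := by simp [dot]
  rw [h3] at h1
  omega

lemma frame_core (h : FormHyp B) {f : Fin 24 → V}
    (hf : ∀ i j, ip B (f i) (f j) = if i = j then 8 else 0)
    (hr : ∀ i j, red (f i) = red (f j))
    (hc : {x : V | ip B x x = 4}.ncard = 196560) :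
    Core (Phi B f).range := by
  refine ⟨?_, ?_, ?_, ?_, ?_, ?_⟩
  · rintro _ ⟨x, rfl⟩ _ ⟨y, rfl⟩
    rw [dot_Phi h.symm hf]
    exact ⟨_, rfl⟩
  · rintro _ ⟨x, rfl⟩
    rw [dot_Phi h.symm hf]
    obtain ⟨c, hc⟩ := h.even x
    rw [hc]
    exact ⟨c, by ring⟩
  · rintro _ ⟨x, rfl⟩ h0
    rw [dot_Phi h.symm hf] at h0
    apply h.no2 x
    omega
  · intro i j hij
    obtain ⟨u, v, e1, e2⟩ := red_eq_halves (hr i j)
    refine ⟨u, ?_⟩
    funext k
    have h1 : ip B (f k) (f i) + ip B (f k) (f j) = 2 * ip B (f k) u := by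
      rw [e1, e2, ip_add_right, ip_sub_right]
      ring
    rw [Phi_apply]
    simp only [e4]
    rw [hf k i, hf k j] at h1
    by_cases hki : k = i
    · have hkj : ¬ k = j := fun e => hij (hki.symm.trans e)
      rw [if_pos hki, if_neg hkj] at h1 ⊢
      omega
    · by_cases hkj : k = j
      · rw [if_neg hki, if_pos hkj] at h1 ⊢
        omega
      · rw [if_neg hki, if_neg hkj] at h1 ⊢
        omega
  · intro i j hij
    obtain ⟨u, v, e1, e2⟩ := red_eq_halves (hr i j)
    refine ⟨v, ?_⟩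
    funext k
    have h1 : ip B (f k) (f i) - ip B (f k) (f j) = 2 * ip B (f k) v := by
      rw [e1, e2, ip_add_right, ip_sub_right]
      ring
    rw [Phi_apply]
    simp only [e4]
    rw [hf k i, hf k j] at h1
    by_cases hki : k = i
    · have hkj : ¬ k = j := fun e => hij (hki.symm.trans e)
      rw [if_pos hki, if_neg hkj] at h1 ⊢
      omega
    · by_cases hkj : k = j
      · rw [if_neg hki, if_pos hkj] at h1 ⊢
        omega
      · rw [if_neg hki, if_neg hkj] at h1 ⊢
        omega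
  · have hset : {u : V | u ∈ (Phi B f).range ∧ dot u u = 32} = Phi B f '' {x : V | ip B x x = 4} := by
      ext u
      constructor
      · rintro ⟨⟨x, rfl⟩, h2⟩
        rw [dot_Phi h.symm hf] at h2
        exact ⟨x, by show ip B x x = 4; omega, rfl⟩
      · rintro ⟨x, hx, rfl⟩
        refine ⟨⟨x, rfl⟩, ?_⟩
        rw [dot_Phi h.symm hf]
        have hx : ip B x x = 4 := hx
        rw [hx]
        norm_num
    rw [hset, Set.ncard_image_of_injective _ (Phi_injective h hf), hc]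

lemma sqNorm_tw {e : Fin 24 ≃ GolayPt} {ε : Fin 24 → ℤ} (hε : ∀ i, ε i = 1 ∨ ε i = -1) (u : V) :
    sqNorm (tw e ε u) = dot u u := by
  unfold sqNorm
  rw [dot_self_eq]
  have := Equiv.sum_comp e.symm (fun i => (ε i * u i) ^ 2)
  simp only [tw]
  rw [this]
  apply Finset.sum_congr rfl
  intro i _
  have h1 : (ε i) ^ 2 = 1 := by
    rcases hε i with h | h <;> rw [h] <;> norm_num
  rw [mul_pow, h1, one_mul]

/-- The final theorem. -/
theorem leech_main (B : Matrix (Fin 24) (Fin 24) ℤ) (hsymm : B.IsSymm)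
    (hpos : ∀ x : Fin 24 → ℤ, x ≠ 0 → 0 < x ⬝ᵥ (B *ᵥ x))
    (heven : ∀ x : Fin 24 → ℤ, (2 : ℤ) ∣ x ⬝ᵥ (B *ᵥ x))
    (h2 : ∀ x : Fin 24 → ℤ, x ⬝ᵥ (B *ᵥ x) ≠ 2)
    (h4 : {x : Fin 24 → ℤ | x ⬝ᵥ (B *ᵥ x) = 4}.ncard = 196560)
    (h6 : {x : Fin 24 → ℤ | x ⬝ᵥ (B *ᵥ x) = 6}.ncard = 16773120)
    (h8 : {x : Fin 24 → ℤ | x ⬝ᵥ (B *ᵥ x) = 8}.ncard = 398034000) :
    ∃ f : (Fin 24 → ℤ) ≃+ Cfsg.leechLattice, ∀ x : Fin 24 → ℤ,
      Cfsg.sqNorm ((f x : Cfsg.leechLattice) : Cfsg.GolayPt → ℤ) = 8 * (x ⬝ᵥ (B *ᵥ x)) := by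
  classical
  have h : FormHyp B := ⟨hsymm, hpos, heven, h2⟩
  have fin4 : {x : V | ip B x x = 4}.Finite := Set.finite_of_ncard_ne_zero (by
    have h4' : {x : V | ip B x x = 4}.ncard = 196560 := h4
    rw [h4']; norm_num)
  have fin6 : {x : V | ip B x x = 6}.Finite := Set.finite_of_ncard_ne_zero (by
    have h6' : {x : V | ip B x x = 6}.ncard = 16773120 := h6
    rw [h6']; norm_num)
  have fin8 : {x : V | ip B x x = 8}.Finite := Set.finite_of_ncard_ne_zero (by
    have h8' : {x : V | ip B x x = 8}.ncard = 398034000 := h8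
    rw [h8']; norm_num)
  obtain ⟨f, hf, hr⟩ := exists_frame h fin4.toFinset fin6.toFinset fin8.toFinset
    (fun x hx => by simpa using hx) (fun x hx => by simpa using hx) (fun x hx => by simpa using hx)
    (by rw [← Set.ncard_eq_toFinset_card _ fin4]; exact h4)
    (by rw [← Set.ncard_eq_toFinset_card _ fin6]; exact h6)
    (by rw [← Set.ncard_eq_toFinset_card _ fin8]; exact h8)
  have hcore := frame_core h hf hr h4
  obtain ⟨e, ε, hε, hmem⟩ := core_main hcore
  have hinj := Phi_injective h hf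
  let F : V →+ leechLattice :=
    { toFun := fun x => ⟨tw e ε (Phi B f x),
        mem_leechLattice_iff.2 ((hmem _).1 ⟨x, rfl⟩)⟩
      map_zero' := by
        apply Subtype.ext
        funext p
        simp [tw]
      map_add' := fun a b => by
        apply Subtype.ext
        simp only [map_add, tw_add]
        rfl }
  have hF : ∀ x, (F x : GolayPt → ℤ) = tw e ε (Phi B f x) := fun x => rfl
  have hbij : Function.Bijective F := by
    constructor
    · intro x y hxy
      apply hinj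
      funext i
      have h1 : tw e ε (Phi B f x) (e i) = tw e ε (Phi B f y) (e i) := by
        rw [← hF, ← hF, hxy]
      simp only [tw, Equiv.symm_apply_apply] at h1
      rcases hε i with h3 | h3 <;> rw [h3] at h1 <;> omega
    · rintro ⟨z, hz⟩
      have hz' := mem_leechLattice_iff.1 hz
      have htw : tw e ε (fun i => ε i * z (e i)) = z := by
        funext p
        simp only [tw, Equiv.apply_symm_apply]
        rcases hε (e.symm p) with h3 | h3 <;> rw [h3] <;> ring
      have h5 : (fun i => ε i * z (e i)) ∈ (Phi B f).range := by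
        rw [hmem, htw]
        exact hz'
      obtain ⟨x, hx⟩ := h5
      refine ⟨x, ?_⟩
      apply Subtype.ext
      rw [hF, hx, htw]
  refine ⟨AddEquiv.ofBijective F hbij, fun x => ?_⟩
  have h6' : ((AddEquiv.ofBijective F hbij x : leechLattice) : GolayPt → ℤ) = tw e ε (Phi B f x) := rfl
  rw [h6', sqNorm_tw hε, dot_Phi hsymm hf]
  rfl

end Cfsg.Agent.LeechChar
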